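import Cfsg.Agent.H7.Mult3
import Cfsg.Agent.H7.Li.J3

set_option autoImplicit false
set_option maxRecDepth 100000

universe u

open scoped Pointwise

namespace CfsgH7.J3m

open Cfsg Subgroup

def M2 : List (List (List Nat)) := Ms ++ [[[2,3,3,0,0,3,0,3,0],[2,0,3,0,1,0,2,0,2],[2,2,3,3,0,0,0,2,0],[3,1,1,2,1,1,0,0,2],[0,0,0,2,0,1,0,1,0],[3,3,1,1,3,3,1,0,0],[1,3,0,2,0,2,2,3,3],[2,1,3,2,0,1,2,0,2],[0,3,2,2,0,2,2,3,3]],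
  [[3,3,3,2,0,2,1,3,0],[2,0,3,1,0,2,2,1,2],[2,2,2,1,0,1,0,2,3],[0,0,2,3,3,1,3,3,3],[0,1,0,1,0,2,0,0,0],[2,0,0,1,1,2,3,1,3],[0,3,0,0,0,1,3,3,3],[2,0,3,0,1,0,2,0,2],[0,3,0,3,0,0,2,3,2]],
  [[2,2,3,3,0,2,2,0,1],[3,0,2,2,0,3,2,3,1],[2,3,3,2,1,0,0,3,1],[2,0,3,3,1,1,3,2,0],[1,1,3,2,2,2,2,3,2],[3,2,2,2,0,0,3,1,1],[0,3,1,1,0,2,1,0,0],[0,1,2,3,2,1,0,2,2],[2,2,2,1,3,2,1,1,3]],
  [[3,2,3,3,1,2,0,0,3],[3,0,2,0,1,3,2,1,3],[2,3,2,2,2,3,1,3,3],[2,3,3,2,3,3,1,2,1],[0,0,1,1,3,0,0,3,2],[3,2,0,1,3,0,3,1,3],[3,3,0,2,3,2,1,0,1],[0,2,2,3,2,1,0,3,1],[1,1,1,0,3,1,0,3,2]]]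
theorem hM2 : (arQ 2 1 1).mOk 9 M2 = true := by decide +kernel
theorem su {F : Type} [Field F] [Fintype F] (hF : Fintype.card F = 4) :
    ∃ H : Subgroup (SU 9 F 2), Nat.card (center H) = 3 ∧ Mdl (H ⧸ center H) 3 Rf 50232960 := by
  obtain ⟨hc, θ, K⟩ := fld4 hF
  have : Fact (Nat.Prime 2) := ⟨by norm_num⟩
  have I := ixFin 9
  have h1 := K.hasSU I hM2 2 1 (K.has (ixFin 9) hM2 (K.pick (ixFin 9) hM2 [0,26,27,2] (K.hasSL (ixFin 9) hM2 hF [0,26,27,2] 34 (by decide +kernel)) (by decide +kernel))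
    [[0],[52,54],[4]] [0,1,2] (by decide +kernel)) (by decide +kernel)
  have h2 := K.has I hM2 (K.pick I hM2 _ h1 (by decide +kernel)) [[0], [2], [4], [4,4,0,0,0,3,4,1,1,2,0,3,4,1,1,2,0,3,4,3,5,3,0,5,0,0,2,0,2,5,1,1,1,5,0,5,2,1,1,1]] (List.range 4) (by decide +kernel)
  have mo := K.pick I hM (List.range 4) (fun j hj => (h2 j hj).imp fun y e => e.trans (congrArg _
    ((show ∀ j ∈ List.range 4, matAt M2 (2 * j) = matAt Ms (2 * j) by decide +kernel) j hj))) (by decide +kernel)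
  obtain ⟨a, b, -⟩ := ext3 I K (inj_sub (inj_sub (inj_sl 9) (SU 9 F (2 ^ 1))) _) mo.sub (by simpa [gensW] using subGen_gen _ (gensW 4))
  exact ⟨_, a, b⟩

end CfsgH7.J3m

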