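import Cfsg.Agent.H7.Mult3
import Cfsg.Agent.H7.Li.Sm
import Cfsg.Agent.H7.Mult6
import Cfsg.Agent.S0242
import Cfsg.Agent.H6.SM3
import Cfsg.Agent.S0243
import Cfsg.Agent.H7.Mx4

set_option autoImplicit false
set_option maxRecDepth 100000

universe u

open scoped Pointwise

namespace CfsgH7.A6m

theorem simple : IsSimpleGroup G0 := alt.elim fun e =>
  have := alternatingGroup.isSimpleGroup (α := Fin 6) (by simp)
  e.isSimpleGroup

end CfsgH7.A6m

namespace CfsgH7.A6m

def mdlFM : List (List (List Nat)) := [[[4,7],[4,0]],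
  [[0,5],[8,4]],
  [[1,5],[0,1]],
  [[1,7],[0,1]],
  [[2,0],[0,2]],
  [[5,4],[4,2]]]
theorem mdlFH : (arQ 3 0 2).mOk 2 mdlFM = true := by decide +kernel
theorem mdlF {F : Type u} [Field F] [Fintype F] (hF : Fintype.card F = 9) : Mdl (Matrix.ProjectiveSpecialLinearGroup (Fin 2) F) 2 Rf 360 := by
  obtain ⟨hc, θ, K⟩ := fld9 hF
  have hM := mdlFH
  have I := ixFin 2
  have mo := K.pick I hM [0,1] (K.hasSL (ixFin 2) hM hF [0,1] 15 (by decide +kernel)) (by decide +kernel)
  exact Mdl.quot_card pr mdl0 simple (V := [[0],[2]]) (by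
    have := Cfsg.Agent.S0243.result hF 2 (by norm_num)
    simp only [Fin.prod_univ_succ, Fin.prod_univ_zero, Fin.val_zero, Fin.val_succ] at this
    norm_num at this; exact (by omega : Nat.card (Matrix.ProjectiveSpecialLinearGroup (Fin 2) F) = 360))
    (K.relC I hM (inj_sl 2) mo [[],[],[4],[4]] (by decide +kernel)) (j := 0) (by norm_num)
    (K.nc I hM mo (t := 0) 1 5 0 0 (by decide +kernel))

end CfsgH7.A6m

namespace CfsgH7.A6m

open Subgroup in
theorem Cov.up3 {G Δ : Type u} [Group G] [Group Δ] [Finite Δ] (hG : _root_.commutator G = ⊤) {τ : Δ →* G}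
    (hτ : Cfsg.IsStemExtension τ) (ha : Nat.card τ.ker = 2) (h : Cov G (Multiplicative (ZMod 3))) :
    Cov Δ (Multiplicative (ZMod 3)) := by
  obtain ⟨Γ, _, _, σ, hσ, ⟨e⟩⟩ := h
  obtain ⟨P, _, _, ρ, f, f', -, h2, h3, h5, ρ', h1, h4⟩ := exists_fibre hG hσ hτ
  have c3 : Nat.card σ.ker = 3 := by rw [Nat.card_congr e.toEquiv]; simp [Nat.card_zmod]
  have d1 := card_dvd_of_surjective f h2
  have d2 := Nat.card_le_card_of_injective _ h5
  have e1 : ρ.ker = τ.ker.comap ρ' := by rw [h4, MonoidHom.comap_ker]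
  have e2 := card_map_mul ρ' ρ.ker
  rw [e1, map_comap_eq_self_of_surjective h1.1, ha, inf_eq_left.2 (ker_le_comap _ _), ← e1] at e2
  rw [Nat.card_prod, ha, c3] at d2
  rw [c3] at d1
  have : 0 < Nat.card ρ.ker := Nat.card_pos
  have : Fact (Nat.Prime 3) := ⟨by norm_num⟩
  exact ⟨P, _, inferInstance, ρ', h1, ⟨mulEquivOfPrimeCardEq (p := 3) (by omega) (by simp)⟩⟩

theorem schurSL {F : Type u} [Field F] [Fintype F] (hF : Fintype.card F = 9) :
    Cfsg.HasCyclicSchurMultiplier (Matrix.SpecialLinearGroup (Fin 2) F) 3 := by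
  obtain ⟨e⟩ := iso (mdlF hF)
  have hp := CfsgH6.perfect_SL2' (F := F) (by omega)
  have hq := Mdl.perf pr mdl0 perf0 (mdlF hF)
  have hτ : Cfsg.IsStemExtension (QuotientGroup.mk' (Subgroup.center (Matrix.SpecialLinearGroup (Fin 2) F))) :=
    ⟨QuotientGroup.mk'_surjective _, by rw [QuotientGroup.ker_mk'], hp ▸ le_top⟩
  have ha : Nat.card (QuotientGroup.mk' (Subgroup.center (Matrix.SpecialLinearGroup (Fin 2) F))).ker = 2 := by
    have h1 := Cfsg.Agent.S0242.result hF 2 (by norm_num)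
    have h2 := Subgroup.card_eq_card_quotient_mul_card_subgroup (Subgroup.center (Matrix.SpecialLinearGroup (Fin 2) F))
    have h3 : Nat.card (_ ⧸ Subgroup.center (Matrix.SpecialLinearGroup (Fin 2) F)) = 360 := (mdlF hF).2.1
    simp only [Fin.prod_univ_succ, Fin.prod_univ_zero, Fin.val_zero, Fin.val_succ] at h1
    rw [QuotientGroup.ker_mk']
    rw [h3] at h2
    norm_num at h1
    omega
  exact schur_of hp (Cov.up3 hq hτ ha (c3.congr' e)) (by simp)
    (SB.up (m := 3) hq hτ ha (by norm_num) (sb.congr e))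

end CfsgH7.A6m

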