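import Cfsg.Agent.H7.Li.O82
import Cfsg.Agent.H7.Xs
import Cfsg.Agent.H5.Orth6

/-! The group Ω⁺(8,2) itself. -/

set_option autoImplicit false

namespace CfsgH7.O82

theorem cen : Nat.card (Subgroup.center (Cfsg.Omega (ZMod 2) (Cfsg.quadFormPlus 4 (ZMod 2)))) = 1 := by
  have hf := CfsgH5.plusQ_nondeg (ZMod 2) 4
  have hs := CfsgH5.CForm.split_of_finrank hf (by simp)
  obtain ⟨x, y, h⟩ := CfsgH5.CForm.orth_exists_hyp hf (by simp)
  have := CfsgH5.CForm.orth_card_center hf hs h (by simp)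
  rw [if_neg (fun h => h.1 (by decide))] at this
  exact (CfsgH5.card_center_equiv (CfsgH5.commutatorEquiv (CfsgH5.orthEquiv (CfsgH5.plusQ (ZMod 2) 4)))).trans this

theorem mdlO : Mdl (Cfsg.Omega (ZMod 2) (Cfsg.quadFormPlus 4 (ZMod 2))) 4 Rf 174182400 :=
  (mdlF (F := ZMod 2) (by simp)).congr ((QuotientGroup.quotientMulEquivOfEq (Subgroup.card_eq_one.1 cen)).trans
    QuotientGroup.quotientBot)

end CfsgH7.O82
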