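import Cfsg.Agent.H7.Mult3
import Cfsg.Agent.H7.Li.U42
import Cfsg.Agent.S0245
import Cfsg.Agent.S0246
import Cfsg.Agent.H7.Mx4

set_option autoImplicit false
set_option maxRecDepth 100000

universe u

open scoped Pointwise

namespace CfsgH7.U42

def mdlSM : List (List (List Nat)) := [[[1,0,2,0],[0,1,0,2],[1,2,0,1],[2,2,1,2]],
  [[0,1,1,0],[1,2,0,1],[2,1,1,0],[1,1,0,1]],
  [[1,2,1,2],[0,2,2,1],[0,0,1,0],[0,1,0,1]],
  [[1,0,2,1],[0,1,1,2],[0,0,1,0],[0,2,2,2]],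
  [[2,0,0,0],[0,2,0,0],[0,0,2,0],[0,0,0,2]],
  [[0,2,0,1],[1,0,0,0],[1,1,0,1],[2,2,1,1]],
  [[0,0,2,0],[0,0,0,2],[1,0,0,0],[0,1,0,0]],
  [[1,0,1,2],[0,1,2,2],[2,0,0,1],[0,2,1,2]],
  [[1,0,0,0],[2,2,0,1],[1,2,1,0],[2,1,0,1]]]
theorem mdlSH : (arP 3).mOk 4 mdlSM = true := by decide +kernel
theorem mdlS {F : Type u} [Field F] [Fintype F] (hF : Fintype.card F = 3) : Mdl (Cfsg.PSp 2 F) 2 Rf 25920 := by
  obtain ⟨hc, K⟩ := fldP (p := 3) (by norm_num) hF
  have hM := mdlSH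
  have I := (ixFin 2).sum' (ixFin 2)
  have mo := K.pick I hM [0,1] (K.hasSp I hM (p := 3) (by norm_num) (fun _ _ => rfl) [0,1] [7,8] 6 (by decide +kernel) (by decide +kernel)) (by decide +kernel)
  exact Mdl.quot_card pr mdl0 simple (V := [[0],[2]]) (by
    have h1 := Cfsg.Agent.S0245.result hF 2
    have h2 := Cfsg.Agent.S0246.result hF 2 (by norm_num)
    have h3 := Subgroup.card_eq_card_quotient_mul_card_subgroup (Subgroup.center (Matrix.symplecticGroup (Fin 2) F))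
    simp only [Finset.prod_range_succ, Finset.prod_range_zero] at h1
    rw [h1, h2] at h3
    norm_num at h3; show Nat.card (_ ⧸ _) = _; omega)
    (K.relC I hM (inj_sp 2) mo [[],[4],[4],[4],[],[4]] (by decide +kernel)) (j := 0) (by norm_num)
    (K.nc I hM mo (t := 0) 1 5 0 0 (by decide +kernel))

end CfsgH7.U42

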